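import Cfsg.Agent.Lib.PermComp.Core

/-!
# Lower bounds for the order of a permutation group from a chain of orbits

A list of levels, each made of a point and a tree of elements fixing the earlier points, gives a lower bound for the order
of the group, and for the order of the group times the order of the pointwise stabiliser of the points.
-/

set_option autoImplicit false

namespace Cfsg.Agent.Lib.PermChain

open _root_.Cfsg.Agent.Lib.PermComp _root_.Cfsg.Agent.Lib.PermComp.Core Subgroup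

variable {n w mask : ℕ}

/-- The elements of `U` fixing the given points. -/
def Tb (U : Subgroup (Equiv.Perm (Fin n))) (B : List ℕ) : Subgroup (Equiv.Perm (Fin n)) where
  carrier := {g | g ∈ U ∧ ∀ p ∈ B, ∀ h : p < n, g ⟨p, h⟩ = ⟨p, h⟩}
  one_mem' := ⟨U.one_mem, fun _ _ _ => rfl⟩
  mul_mem' := by
    rintro a b ⟨ha, ha'⟩ ⟨hb, hb'⟩
    refine ⟨U.mul_mem ha hb, fun p hp h => ?_⟩
    rw [Equiv.Perm.mul_apply, hb' p hp h, ha' p hp h]
  inv_mem' := by
    rintro a ⟨ha, ha'⟩
    refine ⟨U.inv_mem ha, fun p hp h => ?_⟩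
    rw [Equiv.Perm.inv_eq_iff_eq, ha' p hp h]

theorem mem_Tb {U : Subgroup (Equiv.Perm (Fin n))} {B : List ℕ} {g : Equiv.Perm (Fin n)} :
    g ∈ Tb U B ↔ g ∈ U ∧ ∀ p ∈ B, ∀ h : p < n, g ⟨p, h⟩ = ⟨p, h⟩ := Iff.rfl

theorem Tb_nil (U : Subgroup (Equiv.Perm (Fin n))) : Tb U [] = U := by
  ext g
  simp [mem_Tb]

/-- A set of images of a point and a subgroup fixing it. -/
theorem card_step {S T : Subgroup (Equiv.Perm (Fin n))} (hTS : T ≤ S) {c : Fin n} (hT : ∀ t ∈ T, t c = c)
    (F : Finset (Fin n)) (hF : ∀ a ∈ F, ∃ g ∈ S, g c = a) : F.card * Nat.card T ≤ Nat.card S := by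
  classical
  choose! r hr1 hr2 using hF
  let f : F × T → S := fun x => ⟨r x.1.1 * x.2.1, S.mul_mem (hr1 _ x.1.2) (hTS x.2.2)⟩
  have hf : Function.Injective f := by
    rintro ⟨⟨a, ha⟩, ⟨t, ht⟩⟩ ⟨⟨b, hb⟩, ⟨s, hs⟩⟩ h
    have h1 : r a * t = r b * s := congrArg Subtype.val h
    have h2 : (r a * t) c = (r b * s) c := by rw [h1]
    rw [Equiv.Perm.mul_apply, Equiv.Perm.mul_apply, hT t ht, hT s hs, hr2 a ha, hr2 b hb] at h2
    subst h2
    have h3 : t = s := mul_left_cancel h1
    subst h3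
    rfl
  have := Nat.card_le_card_of_injective f hf
  rw [Nat.card_prod] at this
  simpa using this

/-- The test of a tree. -/
noncomputable def treeB (w mask : ℕ) : List (ℕ × ℕ × ℕ) → ℕ → Bool
  | [], _ => true
  | e :: t, m =>
    ifB (Nat.testBit m e.2.2) <| ifB (!(Nat.testBit m e.1)) <| ifB (Nat.beq (app w mask e.2.1 e.2.2) e.1) <|
      force (Nat.lor m (Nat.shiftLeft 1 e.1)) fun m' => treeB w mask t m'

theorem tree_sound {S : Subgroup (Equiv.Perm (Fin n))} {c : Fin n} :
    ∀ (tr : List (ℕ × ℕ × ℕ)) (m : ℕ) (F : Finset (Fin n)),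
      (∀ p : ℕ, Nat.testBit m p = true ↔ ∃ h : p < n, (⟨p, h⟩ : Fin n) ∈ F) →
      (∀ a ∈ F, ∃ g ∈ S, g c = a) →
      (∀ e ∈ tr, ∃ g ∈ S, Rep w mask (Equiv.refl (Fin n)) e.2.1 g) →
      treeB w mask tr m = true →
      ∃ F' : Finset (Fin n), (∀ a ∈ F', ∃ g ∈ S, g c = a) ∧ F'.card = F.card + tr.length := by
  classical
  intro tr
  induction tr with
  | nil =>
    intro m F _ hP _ _
    exact ⟨F, hP, by simp⟩
  | cons e t ih =>
    intro m F hF hP hs h
    simp only [treeB, ifB_eq_true, force_eq] at h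
    obtain ⟨h1, h2, h3, h4⟩ := h
    obtain ⟨hx, hxF⟩ := (hF e.2.2).1 h1
    obtain ⟨s, hsS, hsr⟩ := hs e (List.mem_cons_self)
    obtain ⟨g, hg, hgc⟩ := hP _ hxF
    have h5 : app w mask e.2.1 e.2.2 = (s ⟨e.2.2, hx⟩).1 := hsr ⟨e.2.2, hx⟩
    have h6 : e.1 = (s ⟨e.2.2, hx⟩).1 := by
      rw [← h5]
      exact (Nat.eq_of_beq_eq_true h3).symm
    have hy : e.1 < n := by
      rw [h6]
      exact (s _).2
    have hyy : (⟨e.1, hy⟩ : Fin n) = s ⟨e.2.2, hx⟩ := Fin.ext h6
    have hnot : (⟨e.1, hy⟩ : Fin n) ∉ F := by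
      intro hmem
      have := (hF e.1).2 ⟨hy, hmem⟩
      rw [this] at h2
      exact absurd h2 (by decide)
    obtain ⟨F', hF'1, hF'2⟩ := ih _ (insert ⟨e.1, hy⟩ F) (by
        intro p
        have e1 : Nat.lor m (Nat.shiftLeft 1 e.1) = m ||| (1 <<< e.1) := rfl
        rw [e1, Nat.testBit_or, Bool.or_eq_true, hF p]
        simp only [Nat.one_shiftLeft, Nat.testBit_two_pow, decide_eq_true_eq, Finset.mem_insert, Fin.mk.injEq]
        constructor
        · rintro (⟨h7, h8⟩ | h7)
          · exact ⟨h7, Or.inr h8⟩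
          · subst h7
            exact ⟨hy, Or.inl rfl⟩
        · rintro ⟨h7, h8 | h8⟩
          · exact Or.inr h8.symm
          · exact Or.inl ⟨h7, h8⟩) (by
        intro a ha
        rcases Finset.mem_insert.1 ha with rfl | ha
        · refine ⟨s * g, S.mul_mem hsS hg, ?_⟩
          rw [Equiv.Perm.mul_apply, hgc]
          exact hyy.symm
        · exact hP a ha) (fun e' he' => hs e' (List.mem_cons_of_mem _ he')) h4
    refine ⟨F', hF'1, ?_⟩
    rw [hF'2, Finset.card_insert_of_notMem hnot, List.length_cons]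
    omega

/-- The test of a level. -/
noncomputable def levOK (w mask n : ℕ) (targets : List ℕ) (B : List ℕ) (l : ℕ × List (ℕ × ℕ × ℕ)) : Bool :=
  ifB (Nat.blt l.1 n) <|
  ifB (l.2.all fun e => ifB (memN e.2.1 targets) (B.all fun p => Nat.beq (app w mask e.2.1 p) p)) <|
    treeB w mask l.2 (Nat.shiftLeft 1 l.1)

/-- The test of a chain. -/
noncomputable def chainB (w mask n : ℕ) (targets : List ℕ) : List (ℕ × List (ℕ × ℕ × ℕ)) → List ℕ → Bool
  | [], _ => true
  | l :: t, B => ifB (levOK w mask n targets B l) (chainB w mask n targets t (l.1 :: B))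

/-- The product of the sizes of the orbits. -/
def prodL : List (ℕ × List (ℕ × ℕ × ℕ)) → ℕ
  | [] => 1
  | l :: t => (l.2.length + 1) * prodL t

theorem chain_sound {U : Subgroup (Equiv.Perm (Fin n))} {targets : List ℕ}
    (hT : ∀ c ∈ targets, ∃ g ∈ U, Rep w mask (Equiv.refl (Fin n)) c g) :
    ∀ (levs : List (ℕ × List (ℕ × ℕ × ℕ))) (B : List ℕ), chainB w mask n targets levs B = true →
      prodL levs * Nat.card (Tb U (levs.reverse.map Prod.fst ++ B)) ≤ Nat.card (Tb U B) := by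
  classical
  intro levs
  induction levs with
  | nil =>
    intro B _
    simp [prodL]
  | cons l t ih =>
    intro B h
    simp only [chainB, ifB_eq_true] at h
    obtain ⟨h1, h2⟩ := h
    simp only [levOK, ifB_eq_true, List.all_eq_true] at h1
    obtain ⟨h3, h4, h5⟩ := h1
    have hb : l.1 < n := by simpa using h3
    have hmem : ∀ e ∈ l.2, ∃ g ∈ Tb U B, Rep w mask (Equiv.refl (Fin n)) e.2.1 g := by
      intro e he
      obtain ⟨h6, h7⟩ := h4 e he
      obtain ⟨g, hg, hr⟩ := hT e.2.1 ((memN_eq_true _ _).1 h6)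
      refine ⟨g, ⟨hg, fun p hp hpn => ?_⟩, hr⟩
      have h8 := Nat.eq_of_beq_eq_true (h7 p hp)
      have h9 : app w mask e.2.1 p = (g ⟨p, hpn⟩).1 := hr ⟨p, hpn⟩
      exact Fin.ext (h9.symm.trans h8)
    obtain ⟨F', hF1, hF2⟩ := tree_sound (S := Tb U B) (c := ⟨l.1, hb⟩) l.2 _ {⟨l.1, hb⟩} (by
        intro p
        have e1 : Nat.shiftLeft 1 l.1 = 1 <<< l.1 := rfl
        rw [e1]
        simp only [Nat.one_shiftLeft, Nat.testBit_two_pow, decide_eq_true_eq, Finset.mem_singleton, Fin.mk.injEq]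
        constructor
        · rintro rfl
          exact ⟨hb, rfl⟩
        · rintro ⟨-, rfl⟩
          rfl) (by
        intro a ha
        rw [Finset.mem_singleton] at ha
        subst ha
        exact ⟨1, (Tb U B).one_mem, rfl⟩) hmem h5
    have h6 := ih (l.1 :: B) h2
    have hle : Tb U (l.1 :: B) ≤ Tb U B := fun g hg =>
      ⟨hg.1, fun p hp hpn => hg.2 p (List.mem_cons_of_mem _ hp) hpn⟩
    have h7 := card_step hle (c := ⟨l.1, hb⟩) (fun t ht => ht.2 l.1 List.mem_cons_self hb) F' hF1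
    have e2 : ((l :: t).reverse.map Prod.fst ++ B) = (t.reverse.map Prod.fst ++ (l.1 :: B)) := by
      simp
    rw [e2]
    rw [hF2] at h7
    have e3 : prodL (l :: t) = (l.2.length + 1) * prodL t := rfl
    rw [e3]
    have e4 : ({⟨l.1, hb⟩} : Finset (Fin n)).card = 1 := Finset.card_singleton _
    rw [e4] at h7
    calc (l.2.length + 1) * prodL t * Nat.card (Tb U (t.reverse.map Prod.fst ++ l.1 :: B))
        = (l.2.length + 1) * (prodL t * Nat.card (Tb U (t.reverse.map Prod.fst ++ l.1 :: B))) := by ring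
      _ ≤ (l.2.length + 1) * Nat.card (Tb U (l.1 :: B)) := Nat.mul_le_mul_left _ h6
      _ ≤ Nat.card (Tb U B) := by
        have : 1 + l.2.length = l.2.length + 1 := by omega
        rwa [this] at h7

/-- A chain gives a lower bound, and an upper bound for the order makes the stabiliser of the base trivial. -/
theorem chain_main {U : Subgroup (Equiv.Perm (Fin n))} {targets : List ℕ}
    (hT : ∀ c ∈ targets, ∃ g ∈ U, Rep w mask (Equiv.refl (Fin n)) c g)
    {levs : List (ℕ × List (ℕ × ℕ × ℕ))} (hc : chainB w mask n targets levs [] = true) {N : ℕ}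
    (hN : prodL levs = N) (hpos : 0 < N) (hU : Nat.card U ≤ N) :
    Nat.card U = N ∧ ∀ g ∈ U, (∀ b : Fin n, (b : ℕ) ∈ levs.reverse.map Prod.fst → g b = b) → g = 1 := by
  have h1 := chain_sound hT levs [] hc
  rw [Tb_nil, hN, List.append_nil] at h1
  have hK : 0 < Nat.card (Tb U (levs.reverse.map Prod.fst)) := Nat.card_pos
  have h2 : Nat.card (Tb U (levs.reverse.map Prod.fst)) ≤ 1 := by
    by_contra hcon
    have h3 : 2 ≤ Nat.card (Tb U (levs.reverse.map Prod.fst)) := by omega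
    have : N * 2 ≤ N * Nat.card (Tb U (levs.reverse.map Prod.fst)) := Nat.mul_le_mul_left _ h3
    omega
  constructor
  · have h3 : N * 1 ≤ N * Nat.card (Tb U (levs.reverse.map Prod.fst)) := Nat.mul_le_mul_left _ hK
    omega
  · intro g hg hfix
    have hsub : Subsingleton (Tb U (levs.reverse.map Prod.fst)) := Finite.card_le_one_iff_subsingleton.1 h2
    have hmem : g ∈ Tb U (levs.reverse.map Prod.fst) := ⟨hg, fun p hp h => hfix ⟨p, h⟩ hp⟩
    have := Subsingleton.elim (⟨g, hmem⟩ : Tb U (levs.reverse.map Prod.fst)) 1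
    exact congrArg Subtype.val this

end Cfsg.Agent.Lib.PermChain
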